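import Mathlib
import Cfsg.Agent.Lib.Small.Basic
import Cfsg.Agent.Lib.Invol.Count

/-! Helpers on normal subgroups of small prime order. -/

set_option autoImplicit false

namespace Cfsg.Agent.Lib.Small

variable {G : Type*} [Group G] [Finite G]

open Cfsg.Agent.Lib.Invol

/-- If `P` is normal of prime order `p` containing `y ≠ 1` then the class of `y` has size at most `p - 1`. -/
theorem card_conj_le_of_normal {P : Subgroup G} [hP : P.Normal] {y : G} (hy : y ∈ P) (hy1 : y ≠ 1) :
    Nat.card {g : G // IsConj y g} + 1 ≤ Nat.card P := by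
  classical
  let f : Option {g : G // IsConj y g} → P := fun o => match o with
    | none => 1
    | some g => ⟨g.1, by
        obtain ⟨c, hc⟩ := isConj_iff.mp g.2
        rw [← hc]
        exact hP.conj_mem y hy c⟩
  have hf : Function.Injective f := by
    intro a b hab
    cases a with
    | none =>
      cases b with
      | none => rfl
      | some t =>
        exfalso
        have h1 : (1 : G) = t.1 := congrArg (fun z : P => (z : G)) hab
        have h2 := t.2
        rw [← h1] at h2
        exact hy1 (isConj_one_right.mp h2.symm)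
    | some s =>
      cases b with
      | none =>
        exfalso
        have h1 : s.1 = 1 := congrArg (fun z : P => (z : G)) hab
        have h2 := s.2
        rw [h1] at h2
        exact hy1 (isConj_one_right.mp h2.symm)
      | some t =>
        congr 1
        apply Subtype.ext
        exact congrArg (fun z : P => (z : G)) hab
  have := Nat.card_le_card_of_injective f hf
  rwa [Finite.card_option] at this

/-- element of order `3` and of order `2` commuting give an element of order `6` -/
theorem orderOf_mul_eq_six {a b : G} (ha : orderOf a = 2) (hb : orderOf b = 3) (h : Commute a b) :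
    orderOf (a * b) = 6 := by
  rw [h.orderOf_mul_eq_mul_orderOf_of_coprime (by rw [ha, hb]; norm_num), ha, hb]

theorem exists_orderOf_eq_prime_of_dvd {p : ℕ} [hp : Fact p.Prime] (H : Subgroup G) (h : p ∣ Nat.card H) :
    ∃ x ∈ H, orderOf x = p := by
  obtain ⟨⟨x, hx⟩, hord⟩ := exists_prime_orderOf_dvd_card' p h
  exact ⟨x, hx, by rwa [Subgroup.orderOf_mk] at hord⟩

/-- An element `x` of `p`-power order normalizing a Sylow `p`-subgroup lies in it -/
theorem mem_sylow_of_mem_normalizer {p : ℕ} [hp : Fact p.Prime] (P : Sylow p G) {x : G}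
    (hx : x ∈ Subgroup.normalizer ((P : Subgroup G) : Set G)) (hxp : ∃ k, x ^ (p ^ k) = 1) :
    x ∈ (P : Subgroup G) := by
  have hPz : IsPGroup p (Subgroup.zpowers x) := by
    obtain ⟨k, hk⟩ := hxp
    apply IsPGroup.of_card_dvd_pow (n := k)
    rw [Nat.card_zpowers]
    exact orderOf_dvd_of_pow_eq_one hk
  have h3 := hPz.inf_normalizer_sylow P
  have h4 : x ∈ Subgroup.zpowers x ⊓ (P : Subgroup G) := by
    rw [← h3]
    exact Subgroup.mem_inf.mpr ⟨Subgroup.mem_zpowers x, hx⟩
  exact (Subgroup.mem_inf.mp h4).2

/-- two distinct Sylow subgroups of prime order meet trivially -/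
theorem inf_eq_bot_of_card_prime {p : ℕ} [hp : Fact p.Prime] (P Q : Sylow p G) (hPQ : P ≠ Q)
    (hc : Nat.card (P : Subgroup G) = p) : (P : Subgroup G) ⊓ (Q : Subgroup G) = ⊥ := by
  have h1 : Nat.card ↥((P : Subgroup G) ⊓ (Q : Subgroup G)) ∣ p := by
    have h0 := Subgroup.card_dvd_of_le (inf_le_left : (P : Subgroup G) ⊓ (Q : Subgroup G) ≤ P)
    rw [hc] at h0
    exact h0
  rcases (Nat.dvd_prime hp.out).mp h1 with h | h
  · exact Subgroup.eq_bot_of_card_eq _ h
  · exfalso
    apply hPQ
    have hle : (P : Subgroup G) ⊓ (Q : Subgroup G) ≤ (P : Subgroup G) := inf_le_left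
    have heq : (P : Subgroup G) ⊓ (Q : Subgroup G) = (P : Subgroup G) :=
      Subgroup.eq_of_le_of_card_ge hle (by rw [h, hc])
    have hPleQ : (P : Subgroup G) ≤ Q := inf_eq_left.mp heq
    exact Sylow.ext (P.is_maximal' Q.isPGroup' hPleQ).symm

/-- order of a Sylow subgroup from a factorization of the group order -/
theorem card_sylow_eq_of {p a m : ℕ} [hp : Fact p.Prime] (hG : Nat.card G = p ^ a * m)
    (hpm : ¬ p ∣ m) (P : Sylow p G) : Nat.card (P : Subgroup G) = p ^ a := by
  have h4 := Sylow.card_eq_multiplicity P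
  have hm0 : m ≠ 0 := by
    intro h
    apply hpm
    rw [h]; exact dvd_zero p
  have h5 : (Nat.card G).factorization p = a := by
    rw [hG, Nat.factorization_mul (pow_ne_zero _ hp.out.ne_zero) hm0, Nat.factorization_pow]
    simp [hp.out.factorization, Nat.factorization_eq_zero_of_not_dvd hpm]
  rw [h4, h5]


theorem card_sylow_eq_index {p : ℕ} [hp : Fact p.Prime] (Q : Sylow p G) :
    Nat.card (Sylow p G) = (Subgroup.normalizer ((Q : Subgroup G) : Set G)).index :=
  Q.card_eq_index_normalizer

theorem smul_eq_iff_mem_normalizer' {p : ℕ} {Q : Sylow p G} {k : G} :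
    k • Q = Q ↔ k ∈ Subgroup.normalizer ((Q : Subgroup G) : Set G) :=
  Sylow.smul_eq_iff_mem_normalizer

/-- Elements acting trivially on Sylow subgroups normalize all of them. -/
theorem mem_normalizer_of_mem_ker {p : ℕ} {k : G}
    (hk : k ∈ (MulAction.toPermHom G (Sylow p G)).ker) (Q : Sylow p G) :
    k ∈ Subgroup.normalizer ((Q : Subgroup G) : Set G) := by
  have h1 : (MulAction.toPermHom G (Sylow p G)) k = 1 := hk
  apply smul_eq_iff_mem_normalizer'.mp
  have := congrArg (fun σ : Equiv.Perm (Sylow p G) => σ Q) h1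
  simpa using this

end Cfsg.Agent.Lib.Small
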